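import Mathlib

/-!
Class sizes `1, m, m * n`: the elementary algebra (pairs of automorphisms of an abelian group
without common fixed points, small subgroups).
-/

set_option autoImplicit false

namespace Cfsg.Agent.OneMMN

variable {V : Type*} [CommGroup V]

/-- The norm of `v` under an automorphism of order dividing `p` is fixed. -/
theorem apply_prod_iterate {p : ℕ} (g : MulAut V) (hg : g ^ p = 1) (v : V) :
    g (∏ i ∈ Finset.range p, (g ^ i) v) = ∏ i ∈ Finset.range p, (g ^ i) v := by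
  rw [map_prod]
  have h : ∀ i, g ((g ^ i) v) = (g ^ (i + 1)) v := fun i => by rw [pow_succ']; rfl
  simp only [h]
  rcases p with _ | k
  · simp
  rw [Finset.prod_range_succ, Finset.prod_range_succ' (fun i => (g ^ i) v), hg, pow_zero]

/-- `v ^ p` is a product of norms, hence lies among the common fixed points. -/
theorem pow_mem_of_norms {p t : ℕ} [Fact p.Prime] (ht : 0 < t) (g h : MulAut V) (k : ZMod p → MulAut V)
    (hg : g ^ p = 1) (hk : ∀ j, k j ^ t = 1)
    (hσ : ∀ l, 0 < l → l < t → ∃ σ : ZMod p ≃ ZMod p, ∀ j, k j ^ l = g ^ (σ j).val * h ^ l)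
    (Z0 : Subgroup V) (hfg : ∀ v, g v = v → v ∈ Z0) (hfk : ∀ j v, k j v = v → v ∈ Z0) (v : V) :
    v ^ p ∈ Z0 := by
  have hp : p.Prime := Fact.out
  obtain ⟨t', rfl⟩ : ∃ t', t = t' + 1 := ⟨t - 1, by omega⟩
  set Ng : V → V := fun w => ∏ i ∈ Finset.range p, (g ^ i) w
  have hNg : ∀ w, Ng w ∈ Z0 := fun w => hfg _ (apply_prod_iterate g hg w)
  have hNk : ∀ j, ∏ l ∈ Finset.range (t' + 1), (k j ^ l) v ∈ Z0 :=
    fun j => hfk j _ (apply_prod_iterate (k j) (hk j) v)
  have hsum : ∀ w, ∏ j : ZMod p, (g ^ j.val) w = Ng w := fun w => by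
    refine Finset.prod_nbij (fun j => j.val) (fun j _ => Finset.mem_range.2 (ZMod.val_lt j))
      (fun a _ b _ h => ZMod.val_injective p h) (fun i hi => ?_) (fun j _ => rfl)
    exact ⟨(i : ZMod p), Finset.mem_univ _, ZMod.val_cast_of_lt (Finset.mem_range.1 hi)⟩
  have hl : ∀ l ∈ Finset.range t', ∏ j : ZMod p, (k j ^ (l + 1)) v = Ng ((h ^ (l + 1)) v) := by
    intro l hl
    obtain ⟨σ, hσ⟩ := hσ (l + 1) (by omega) (by simp at hl; omega)
    rw [← hsum ((h ^ (l + 1)) v), ← Equiv.prod_comp σ (fun j => (g ^ j.val) ((h ^ (l + 1)) v))]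
    exact Finset.prod_congr rfl fun j _ => by rw [hσ j]; rfl
  have key : ∏ j : ZMod p, ∏ l ∈ Finset.range (t' + 1), (k j ^ l) v =
      (∏ l ∈ Finset.range t', Ng ((h ^ (l + 1)) v)) * v ^ p := by
    rw [Finset.prod_comm, Finset.prod_range_succ', Finset.prod_congr rfl hl]
    simp
  have h1 : ∏ j : ZMod p, ∏ l ∈ Finset.range (t' + 1), (k j ^ l) v ∈ Z0 :=
    prod_mem fun j _ => hNk j
  rw [key] at h1
  exact (Z0.mul_mem_cancel_left (prod_mem fun l _ => hNg _)).1 h1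

/-- An elementary abelian pair. -/
theorem pow_mem_of_commute {p : ℕ} [Fact p.Prime] (g h : MulAut V) (hg : g ^ p = 1) (hh : h ^ p = 1)
    (hgh : Commute g h) (Z0 : Subgroup V) (hfg : ∀ v, g v = v → v ∈ Z0)
    (hfk : ∀ (j : ℕ) v, (g ^ j * h) v = v → v ∈ Z0) (v : V) : v ^ p ∈ Z0 := by
  have hp : p.Prime := Fact.out
  refine pow_mem_of_norms hp.pos g h (fun j => g ^ j.val * h) hg (fun j => ?_) (fun l hl0 hlp => ?_) Z0 hfg
    (fun j => hfk j.val) v
  · rw [(hgh.pow_left _).mul_pow, hh, mul_one, ← pow_mul, mul_comm, pow_mul, hg, one_pow]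
  · have hl : (l : ZMod p) ≠ 0 := fun h0 => by
      rw [ZMod.natCast_eq_zero_iff] at h0
      exact Nat.not_dvd_of_pos_of_lt hl0 hlp h0
    refine ⟨Equiv.mulRight₀ (l : ZMod p) hl, fun j => ?_⟩
    rw [(hgh.pow_left _).mul_pow, ← pow_mul]
    congr 1
    refine pow_eq_pow_of_modEq ?_ hg
    rw [← ZMod.natCast_eq_natCast_iff]
    simp

/-- An automorphism of prime order permuting the powers of another. -/
theorem pow_mem_of_normalize {p t : ℕ} [Fact p.Prime] (ht : t.Prime) (g h : MulAut V) (hg : g ^ p = 1)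
    (hh : h ^ t = 1) {i : ℕ} (hi : h * g * h⁻¹ = g ^ i) (hi1 : (i : ZMod p) ≠ 1) (hg1 : g ≠ 1)
    (Z0 : Subgroup V) (hfg : ∀ v, g v = v → v ∈ Z0)
    (hfk : ∀ (j : ℕ) v, (g ^ j * h * (g ^ j)⁻¹) v = v → v ∈ Z0) (v : V) : v ^ p ∈ Z0 := by
  have hp : p.Prime := Fact.out
  have hord : orderOf g = p := orderOf_eq_prime hg hg1
  have hhl : ∀ l j : ℕ, h ^ l * g ^ j * (h ^ l)⁻¹ = g ^ (i ^ l * j) := by
    intro l
    induction l with
    | zero => intro j; simp
    | succ l ih =>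
      intro j
      have e : h * g ^ j * h⁻¹ = g ^ (i * j) := by
        rw [pow_mul, ← hi]
        exact map_pow (MulAut.conj h) g j
      calc h ^ (l + 1) * g ^ j * (h ^ (l + 1))⁻¹ = h ^ l * (h * g ^ j * h⁻¹) * (h ^ l)⁻¹ := by
            rw [pow_succ]; group
        _ = g ^ (i ^ l * (i * j)) := by rw [e, ih]
        _ = g ^ (i ^ (l + 1) * j) := by rw [pow_succ]; congr 1; ring
  have hit : (i : ZMod p) ^ t = 1 := by
    have := hhl t 1
    rw [hh, one_mul, inv_one, mul_one, mul_one, pow_eq_pow_iff_modEq, hord] at this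
    rw [← ZMod.natCast_eq_natCast_iff] at this
    simpa using this.symm
  refine pow_mem_of_norms ht.pos g h (fun j => g ^ j.val * h * (g ^ j.val)⁻¹) hg (fun j => ?_)
    (fun l hl0 hlt => ?_) Z0 hfg (fun j => hfk j.val) v
  · rw [conj_pow, hh, mul_one, mul_inv_cancel]
  · have hl : (1 : ZMod p) - (i : ZMod p) ^ l ≠ 0 := by
      intro h0
      have hd : orderOf (i : ZMod p) ∣ l := orderOf_dvd_of_pow_eq_one (sub_eq_zero.1 h0).symm
      rw [orderOf_eq_prime (hp := ⟨ht⟩) hit hi1] at hd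
      exact Nat.not_dvd_of_pos_of_lt hl0 hlt hd
    refine ⟨Equiv.mulRight₀ _ hl, fun j => ?_⟩
    rw [conj_pow]
    have e : h ^ l * (g ^ j.val)⁻¹ = (g ^ (i ^ l * j.val))⁻¹ * h ^ l := by
      rw [← hhl l j.val]; group
    rw [mul_assoc, e, ← mul_assoc]
    congr 1
    rw [mul_inv_eq_iff_eq_mul, ← pow_add]
    refine pow_eq_pow_of_modEq ?_ hg
    rw [← ZMod.natCast_eq_natCast_iff]
    simp
    ring

end Cfsg.Agent.OneMMN
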